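import Mathlib
import Cfsg.Prelude.Def_OddOrderLocal

/-!
# S2536 package PK4 (helper62): point stabilizers of transitive Hall subgroups of `Sym(Ω)`

* `card_dvd_of_transitive`: a transitive subgroup of `Perm Ω` has order divisible by `|Ω|`
  (for nonempty `Ω`; the statement is false for empty `Ω`, where `0 ∤ 1`).
* `hall_point_stab`: if `H` is a transitive Hall `π`-subgroup of `Perm Ω`, then the point stabilizer
  `H_ω`, viewed inside `Perm {x // x ≠ ω}`, is a Hall `π`-subgroup there.
-/

set_option autoImplicit false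

namespace Cfsg.Agent.Lib.Helper62.HT

open Cfsg

theorem card_eq_card_mul_index_stabilizer {Ω : Type*} [Fintype Ω] [DecidableEq Ω]
    {H : Subgroup (Equiv.Perm Ω)} (htr : ∀ x y : Ω, ∃ h ∈ H, h x = y) (ω : Ω) :
    Nat.card H = Nat.card (MulAction.stabilizer H ω) * Fintype.card Ω := by
  have hpre : MulAction.IsPretransitive H Ω := ⟨fun x y => by
    obtain ⟨h, hh, hxy⟩ := htr x y
    exact ⟨⟨h, hh⟩, hxy⟩⟩
  have h1 := MulAction.index_stabilizer_of_transitive H ω
  rw [Nat.card_eq_fintype_card] at h1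
  rw [← h1]
  exact (Subgroup.card_mul_index _).symm

/-- A transitive subgroup of `Perm Ω` (`Ω` nonempty) has order divisible by `|Ω|`. -/
theorem card_dvd_of_transitive {Ω : Type*} [Fintype Ω] [DecidableEq Ω] [hne : Nonempty Ω]
    {H : Subgroup (Equiv.Perm Ω)} (htr : ∀ x y : Ω, ∃ h ∈ H, h x = y) :
    Fintype.card Ω ∣ Nat.card H := by
  obtain ⟨ω⟩ := hne
  rw [card_eq_card_mul_index_stabilizer htr ω]
  exact dvd_mul_left _ _

/-- membership in the pulled-back point stabilizer -/
theorem mem_comap_ofSubtype_iff {Ω : Type*} [DecidableEq Ω] (H : Subgroup (Equiv.Perm Ω)) (ω : Ω)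
    (h' : Equiv.Perm {x // x ≠ ω}) :
    h' ∈ H.comap (Equiv.Perm.ofSubtype (p := fun x => x ≠ ω)) ↔
      ∃ h ∈ H, h ω = ω ∧ ∀ x : {x // x ≠ ω}, ((h' x : {x // x ≠ ω}) : Ω) = h x := by
  rw [Subgroup.mem_comap]
  constructor
  · intro hmem
    refine ⟨_, hmem, ?_, ?_⟩
    · exact Equiv.Perm.ofSubtype_apply_of_not_mem h' (by simp)
    · intro x
      exact (Equiv.Perm.ofSubtype_apply_coe h' x).symm
  · rintro ⟨h, hh, hω, hx⟩
    have heq : Equiv.Perm.ofSubtype h' = h := by
      ext y
      by_cases hy : y = ω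
      · rw [hy, hω]
        exact Equiv.Perm.ofSubtype_apply_of_not_mem h' (by simp)
      · have := Equiv.Perm.ofSubtype_apply_coe h' ⟨y, hy⟩
        rw [this]
        exact hx ⟨y, hy⟩
    rw [heq]
    exact hh

/-- the pulled-back point stabilizer has the order of the point stabilizer -/
theorem card_comap_ofSubtype {Ω : Type*} [DecidableEq Ω] (H : Subgroup (Equiv.Perm Ω)) (ω : Ω) :
    Nat.card (H.comap (Equiv.Perm.ofSubtype (p := fun x => x ≠ ω))) =
      Nat.card (MulAction.stabilizer H ω) := by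
  have hfix : ∀ h' : Equiv.Perm {x // x ≠ ω}, Equiv.Perm.ofSubtype h' ω = ω := fun h' =>
    Equiv.Perm.ofSubtype_apply_of_not_mem h' (by simp)
  apply Nat.card_eq_of_bijective
    (fun h' : H.comap (Equiv.Perm.ofSubtype (p := fun x => x ≠ ω)) =>
      (⟨⟨Equiv.Perm.ofSubtype (h' : Equiv.Perm {x // x ≠ ω}), h'.2⟩, by
        rw [MulAction.mem_stabilizer_iff]
        exact hfix _⟩ : MulAction.stabilizer H ω))
  constructor
  · intro a b hab
    have h1 : Equiv.Perm.ofSubtype (a : Equiv.Perm {x // x ≠ ω}) =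
        Equiv.Perm.ofSubtype (b : Equiv.Perm {x // x ≠ ω}) := by
      have := congrArg (fun z : MulAction.stabilizer H ω => ((z : H) : Equiv.Perm Ω)) hab
      exact this
    exact Subtype.ext (Equiv.Perm.ofSubtype_injective h1)
  · rintro ⟨⟨h, hh⟩, hstab⟩
    have hω : h ω = ω := by
      rw [MulAction.mem_stabilizer_iff] at hstab
      exact hstab
    have h₁ : ∀ x : Ω, h x ≠ ω ↔ x ≠ ω := by
      intro x
      constructor
      · intro hx hxω
        exact hx (by rw [hxω, hω])
      · intro hx hxω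
        apply hx
        apply h.injective
        rw [hxω, hω]
    have h₂ : ∀ x : Ω, h x ≠ x → x ≠ ω := by
      intro x hx hxω
      exact hx (by rw [hxω, hω])
    have heq : Equiv.Perm.ofSubtype (h.subtypePerm h₁) = h :=
      Equiv.Perm.ofSubtype_subtypePerm h₁ h₂
    refine ⟨⟨h.subtypePerm h₁, ?_⟩, ?_⟩
    · rw [Subgroup.mem_comap, heq]
      exact hh
    · apply Subtype.ext
      apply Subtype.ext
      exact heq

/-- **PK4.** The point stabilizer of a transitive Hall `π`-subgroup of `Perm Ω` is a Hall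
`π`-subgroup of `Perm {x // x ≠ ω}`. -/
theorem hall_point_stab {Ω : Type*} [Fintype Ω] [DecidableEq Ω] {π : Set ℕ}
    {H : Subgroup (Equiv.Perm Ω)} (hH : Cfsg.IsPiHall π H)
    (htr : ∀ x y : Ω, ∃ h ∈ H, h x = y) (ω : Ω) :
    ∃ H' : Subgroup (Equiv.Perm {x // x ≠ ω}), Cfsg.IsPiHall π H' ∧
      ∀ h' : Equiv.Perm {x // x ≠ ω}, h' ∈ H' ↔
        ∃ h ∈ H, h ω = ω ∧ ∀ x : {x // x ≠ ω}, ((h' x : {x // x ≠ ω}) : Ω) = h x := by
  classical
  refine ⟨H.comap (Equiv.Perm.ofSubtype (p := fun x => x ≠ ω)), ⟨?_, ?_⟩,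
    mem_comap_ofSubtype_iff H ω⟩
  · -- the order divides the order of `H`
    intro p hp hdvd
    apply hH.1 p hp
    rw [card_comap_ofSubtype] at hdvd
    exact hdvd.trans (Subgroup.card_subgroup_dvd_card _)
  · -- the index equals the index of `H`
    intro p hp hpπ hdvd
    apply hH.2 p hp hpπ
    have hn : 0 < Fintype.card Ω := Fintype.card_pos_iff.2 ⟨ω⟩
    have hidx : (H.comap (Equiv.Perm.ofSubtype (p := fun x => x ≠ ω))).index = H.index := by
      have e1 := Subgroup.card_mul_index (H.comap (Equiv.Perm.ofSubtype (p := fun x => x ≠ ω)))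
      have e2 := Subgroup.card_mul_index H
      rw [card_comap_ofSubtype] at e1
      rw [card_eq_card_mul_index_stabilizer htr ω] at e2
      have c1 : Nat.card (Equiv.Perm {x // x ≠ ω}) = (Fintype.card Ω - 1).factorial := by
        rw [Nat.card_eq_fintype_card, Fintype.card_perm]
        congr 1
        exact Set.card_ne_eq ω
      have c2 : Nat.card (Equiv.Perm Ω) = (Fintype.card Ω).factorial := by
        rw [Nat.card_eq_fintype_card, Fintype.card_perm]
      rw [c1] at e1
      rw [c2] at e2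
      have hfac : (Fintype.card Ω).factorial =
          Fintype.card Ω * (Fintype.card Ω - 1).factorial := by
        obtain ⟨m, hm⟩ := Nat.exists_eq_succ_of_ne_zero hn.ne'
        rw [hm, Nat.factorial_succ]
        rfl
      have hpos : 0 < Nat.card (MulAction.stabilizer H ω) * Fintype.card Ω :=
        Nat.mul_pos Nat.card_pos hn
      apply Nat.eq_of_mul_eq_mul_left hpos
      rw [e2, hfac, ← e1]
      ring
    rw [← hidx]
    exact hdvd

end Cfsg.Agent.Lib.Helper62.HT
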